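import Cfsg.Agent.HoltZ.Base

/-!
# 2-central four-groups: the good position (helper991)

Tasks 280-283 (for S3102).
-/

set_option autoImplicit false

namespace Cfsg.Agent.H991.FG

open Cfsg

/-- **Good position.** Up to conjugation `z` commutes with a given 2-subgroup `D`. -/
theorem exists_commute {G : Type*} [Group G] [Finite G] {z : G} (hz : IsTwoCentralInvolution z) (D : Subgroup G)
    (hD : IsPGroup 2 D) : ∃ g : G, ∀ d ∈ D, d * (g * z * g⁻¹) = g * z * g⁻¹ * d := by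
  obtain ⟨P, hP, hc⟩ := hz.2
  obtain ⟨Q, hQ⟩ := hD.exists_le_sylow
  obtain ⟨g, hg⟩ := MulAction.exists_smul_eq G P Q
  refine ⟨g, ?_⟩
  intro d hd
  have h1 : d ∈ ((g • P : Sylow 2 G) : Subgroup G) := by rw [hg]; exact hQ hd
  rw [Sylow.coe_subgroup_smul] at h1
  obtain ⟨y, hy, rfl⟩ := Subgroup.mem_map.1 h1
  change g * y * g⁻¹ * (g * z * g⁻¹) = g * z * g⁻¹ * (g * y * g⁻¹)
  have := hc y hy
  calc g * y * g⁻¹ * (g * z * g⁻¹) = g * (y * z) * g⁻¹ := by group
    _ = g * (z * y) * g⁻¹ := by rw [this]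
    _ = _ := by group

end Cfsg.Agent.H991.FG
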