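import Cfsg.Agent.H991.FourQuat
import Cfsg.Agent.H991.QuatFourU
import Cfsg.Agent.LieClassical.SUBasic

/-!
# No 2-central normal four-group in `PSL_4(q)`, `q = 3 mod 4`, and `PSU_4(q)`, `q = 1 mod 4` (helper991)

Tasks 280, 281 (for S3102).
-/

set_option autoImplicit false

namespace Cfsg.Agent.H991.FG

open Cfsg Matrix Subgroup Cfsg.Agent.HoltZ Cfsg.Agent.HoltZ.Psl Cfsg.Agent.LieClassical.HermBasic

theorem sq_ne_neg_one {F : Type*} [Field F] [Fintype F] (hF : Fintype.card F % 4 = 3) (c : F) : c ^ 2 ≠ -1 := by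
  intro h
  have h1 : IsSquare (-1 : F) := ⟨c, by rw [← pow_two, h]⟩
  rw [FiniteField.isSquare_neg_one_iff] at h1
  exact h1 hF

theorem two_ne {F : Type*} [Field F] [Fintype F] (hF : Odd (Fintype.card F)) : (2 : F) ≠ 0 := 
  Cfsg.Agent.H991.two_ne_of_odd_card hF

theorem pow_four_cases {F : Type*} [Field F] (hns : ∀ c : F, c ^ 2 ≠ -1) {c : F} (h : c ^ 4 = 1) : c = 1 ∨ c = -1 := by
  have h1 : (c ^ 2 - 1) * (c ^ 2 + 1) = 0 := by linear_combination h
  rcases mul_eq_zero.1 h1 with h2 | h2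
  · have h3 : (c - 1) * (c + 1) = 0 := by linear_combination h2
    rcases mul_eq_zero.1 h3 with h4 | h4
    · left; linear_combination h4
    · right; linear_combination h4
  · exact absurd (by linear_combination h2) (hns c)

/-- the data for `PSL_4(q)` -/
def datL {F : Type} [Field F] [Fintype F] (hF : Fintype.card F % 4 = 3) {r s : F} (hrs : r ^ 2 + s ^ 2 = -1) :
    Dat (SpecialLinearGroup (Fin 4) F) (Matrix.ProjectiveSpecialLinearGroup (Fin 4) F) r s where
  ρ := MonoidHom.id _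
  inj := fun _ _ h => h
  π := QuotientGroup.mk' (center (SpecialLinearGroup (Fin 4) F))
  surj := QuotientGroup.mk'_surjective _
  ker := by
    intro g
    rw [QuotientGroup.mk'_apply, QuotientGroup.eq_one_iff, Matrix.SpecialLinearGroup.mem_center_iff]
    constructor
    · rintro ⟨c, hc, hg⟩
      rw [Fintype.card_fin] at hc
      rcases pow_four_cases (sq_ne_neg_one hF) hc with h | h
      · left
        rw [h, map_one] at hg
        exact hg.symm
      · right
        rw [h, map_neg, map_one] at hg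
        exact hg.symm
    · rintro (h | h)
      · exact ⟨1, by simp, by rw [map_one]; exact h.symm⟩
      · exact ⟨-1, by simp; norm_num, by rw [map_neg, map_one]; exact h.symm⟩
  h2 := two_ne (Nat.odd_iff.2 (by omega))
  hrs := hrs
  a1 := up 0 1 (-1) 0 (by ring)
  b1 := up r s s (-r) (by linear_combination -hrs)
  a2 := lo 0 1 (-1) 0 (by ring)
  b2 := lo r s s (-r) (by linear_combination -hrs)
  ha1 := rfl
  hb1 := rfl
  ha2 := rfl
  hb2 := rfl
  K := fun _ _ c _ => sq_ne_neg_one hF c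

theorem four_L4 {F : Type} [Field F] [Fintype F] (hF : Fintype.card F % 4 = 3)
    (S : Sylow 2 (Matrix.ProjectiveSpecialLinearGroup (Fin 4) F))
    (U : Subgroup (Matrix.ProjectiveSpecialLinearGroup (Fin 4) F)) (hUS : U ≤ S) (hU4 : Nat.card U = 4)
    (hU2 : ∀ u ∈ U, u * u = 1) (hn : ∀ s ∈ S, ∀ u ∈ U, s * u * s⁻¹ ∈ U)
    (hc : ∀ u ∈ U, u ≠ 1 → Cfsg.IsTwoCentralInvolution u) : False := by
  obtain ⟨r, s, hrs⟩ := Cfsg.Agent.HoltZ.exists_sq_add_sq (two_ne (F := F) (Nat.odd_iff.2 (by omega))) (-1)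
  exact (datL hF hrs).four S U hU4 hUS hn hc

section U

variable {F : Type} [Field F] [Fintype F] {q : ℕ}

omit [Fintype F] in
theorem herm4 (u v : Fin 4 → F) : hermForm 4 F q u v = u 0 * v 0 ^ q + u 1 * v 1 ^ q + u 2 * v 2 ^ q + u 3 * v 3 ^ q := by
  rw [herm_def, Fin.sum_univ_four]

theorem up_mem (hF : Fintype.card F = q ^ 2) {x y z w : F} (h : x * w - y * z = 1)
    (h1 : x * x ^ q + z * z ^ q = 1) (h2 : y * y ^ q + w * w ^ q = 1) (h3 : x * y ^ q + z * w ^ q = 0)
    (h4 : y * x ^ q + w * z ^ q = 0) :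
    up x y z w h ∈ SU 4 F q := by
  rw [mem_SU_iff]
  intro u v
  have e : ∀ u : Fin 4 → F, (up x y z w h).1 *ᵥ u = ![x * u 0 + y * u 1, z * u 0 + w * u 1, u 2, u 3] := by
    intro u
    ext i
    fin_cases i <;> simp [up, Matrix.mulVec, dotProduct, Fin.sum_univ_four]
  rw [e, e, herm4, herm4]
  simp [add_pow_q hF, mul_pow]
  linear_combination (u 0 * v 0 ^ q) * h1 + (u 1 * v 1 ^ q) * h2 + (u 0 * v 1 ^ q) * h3 + (u 1 * v 0 ^ q) * h4

theorem lo_mem (hF : Fintype.card F = q ^ 2) {x y z w : F} (h : x * w - y * z = 1)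
    (h1 : x * x ^ q + z * z ^ q = 1) (h2 : y * y ^ q + w * w ^ q = 1) (h3 : x * y ^ q + z * w ^ q = 0)
    (h4 : y * x ^ q + w * z ^ q = 0) :
    lo x y z w h ∈ SU 4 F q := by
  rw [mem_SU_iff]
  intro u v
  have e : ∀ u : Fin 4 → F, (lo x y z w h).1 *ᵥ u = ![u 0, u 1, x * u 2 + y * u 3, z * u 2 + w * u 3] := by
    intro u
    ext i
    fin_cases i <;> simp [lo, Matrix.mulVec, dotProduct, Fin.sum_univ_four]
  rw [e, e, herm4, herm4]
  simp [add_pow_q hF, mul_pow]
  linear_combination (u 2 * v 2 ^ q) * h1 + (u 3 * v 3 ^ q) * h2 + (u 2 * v 3 ^ q) * h3 + (u 3 * v 2 ^ q) * h4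

omit [Fintype F] in
/-- a square root of `-1` is not a norm one element if `q = 1 mod 4` -/
theorem norm_ne (hq : q % 4 = 1) (h2 : (2 : F) ≠ 0) {c : F} (hc : c ^ 2 = -1) : c ^ (q + 1) ≠ 1 := by
  obtain ⟨k, rfl⟩ : ∃ k, q = 4 * k + 1 := ⟨q / 4, by omega⟩
  have : c ^ (4 * k + 1 + 1) = -1 := by
    rw [show 4 * k + 1 + 1 = 2 * (2 * k + 1) by ring, pow_mul, hc]
    exact Odd.neg_one_pow ⟨k, rfl⟩
  rw [this]
  intro h
  apply h2
  linear_combination -h

omit [Fintype F] in
theorem pow_four_cases_norm (hq : q % 4 = 1) (h2 : (2 : F) ≠ 0) {c : F} (h : c ^ 4 = 1) (hc : c ^ (q + 1) = 1) :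
    c = 1 ∨ c = -1 := by
  have h1 : (c ^ 2 - 1) * (c ^ 2 + 1) = 0 := by linear_combination h
  rcases mul_eq_zero.1 h1 with h2' | h2'
  · have h3 : (c - 1) * (c + 1) = 0 := by linear_combination h2'
    rcases mul_eq_zero.1 h3 with h4 | h4
    · left; linear_combination h4
    · right; linear_combination h4
  · exact absurd hc (norm_ne hq h2 (by linear_combination h2'))

omit [Field F] in
theorem odd_card_of (hF : Fintype.card F = q ^ 2) (hq : q % 4 = 1) : Odd (Fintype.card F) := by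
  rw [hF]
  exact Odd.pow (Nat.odd_iff.2 (by omega))

/-- the data for `PSU_4(q)` -/
def datU (hF : Fintype.card F = q ^ 2) (hq : q % 4 = 1) {r s : F} (hrs : r ^ 2 + s ^ 2 = -1) (hr : r ^ q = -r)
    (hs : s ^ q = -s) :
    Dat (SU 4 F q) (Cfsg.PSU 4 F q) r s where
  ρ := (SU 4 F q).subtype
  inj := (SU 4 F q).subtype_injective
  π := QuotientGroup.mk' (center (SU 4 F q))
  surj := QuotientGroup.mk'_surjective _
  ker := by
    intro g
    rw [QuotientGroup.mk'_apply, QuotientGroup.eq_one_iff,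
      Cfsg.Agent.LieClassical.SUBasic.mem_center_SU_iff hF (by norm_num)]
    have hq' : Even (q + 1) := Nat.even_iff.2 (by omega)
    constructor
    · rintro ⟨c, hcn, hcq, rfl⟩
      rcases pow_four_cases_norm hq (two_ne (odd_card_of hF hq)) hcn hcq with h | h
      · left
        subst h
        exact diagonal_one
      · right
        subst h
        change diagonal (fun _ => (-1 : F)) = -1
        rw [← diagonal_one, diagonal_neg]
    · rintro (h | h)
      · refine ⟨1, one_pow _, one_pow _, ?_⟩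
        apply Subtype.ext
        apply Subtype.ext
        change _ = diagonal (fun _ => (1 : F))
        rw [diagonal_one]
        exact h
      · refine ⟨-1, by norm_num, hq'.neg_one_pow, ?_⟩
        apply Subtype.ext
        apply Subtype.ext
        change _ = diagonal (fun _ => (-1 : F))
        have e : diagonal (fun _ : Fin 4 => (-1 : F)) = -1 := by
          rw [← diagonal_one, diagonal_neg]
        rw [e]
        exact h
  h2 := two_ne (odd_card_of hF hq)
  hrs := hrs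
  a1 := ⟨up 0 1 (-1) 0 (by ring), up_mem hF _ (by simp [zero_pow_q hF, neg_pow_q hF])
    (by simp [zero_pow_q hF]) (by simp [zero_pow_q hF]) (by simp [zero_pow_q hF])⟩
  b1 := ⟨up r s s (-r) (by linear_combination -hrs), up_mem hF _
    (by rw [hr, hs]; linear_combination -hrs) (by rw [neg_pow_q hF, hr, hs]; linear_combination -hrs)
    (by rw [neg_pow_q hF, hr, hs]; ring) (by rw [hr, hs]; ring)⟩
  a2 := ⟨lo 0 1 (-1) 0 (by ring), lo_mem hF _ (by simp [zero_pow_q hF, neg_pow_q hF])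
    (by simp [zero_pow_q hF]) (by simp [zero_pow_q hF]) (by simp [zero_pow_q hF])⟩
  b2 := ⟨lo r s s (-r) (by linear_combination -hrs), lo_mem hF _
    (by rw [hr, hs]; linear_combination -hrs) (by rw [neg_pow_q hF, hr, hs]; linear_combination -hrs)
    (by rw [neg_pow_q hF, hr, hs]; ring) (by rw [hr, hs]; ring)⟩
  ha1 := rfl
  hb1 := rfl
  ha2 := rfl
  hb2 := rfl
  K := by
    intro g h c hgh hc
    apply norm_ne hq (two_ne (odd_card_of hF hq)) hc
    have key : ∀ g : SU 4 F q, ∑ i, (g.1.1 : Matrix (Fin 4) (Fin 4) F) i 0 * (g.1.1 i 0) ^ q = 1 := by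
      intro g
      have h1 := (mem_SU_iff _).1 g.2 (Pi.single 0 1) (Pi.single 0 1)
      rw [herm_def, herm_def] at h1
      have h3 : ∀ i, (g.1.1 *ᵥ (Pi.single 0 1 : Fin 4 → F)) i = g.1.1 i 0 := by
        intro i
        rw [mulVec_single_one]; rfl
      simp only [h3] at h1
      rw [h1, Fin.sum_univ_four]
      simp
    have h1 := key g
    have h2 := key h
    have h3 : ∀ i, (g.1.1 : Matrix (Fin 4) (Fin 4) F) i 0 * (g.1.1 i 0) ^ q =
        c ^ (q + 1) * (h.1.1 i 0 * (h.1.1 i 0) ^ q) := by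
      intro i
      have : g.1.1 i 0 = c * h.1.1 i 0 := hgh i
      rw [this, mul_pow]
      ring
    rw [Finset.sum_congr rfl fun i _ => h3 i, ← Finset.mul_sum, h2, mul_one] at h1
    exact h1

theorem four_U4 {F : Type} [Field F] [Fintype F] {q : ℕ} (hF : Fintype.card F = q ^ 2) (hq : q % 4 = 1)
    (S : Sylow 2 (Cfsg.PSU 4 F q)) (U : Subgroup (Cfsg.PSU 4 F q)) (hUS : U ≤ S) (hU4 : Nat.card U = 4)
    (hU2 : ∀ u ∈ U, u * u = 1) (hn : ∀ s ∈ S, ∀ u ∈ U, s * u * s⁻¹ ∈ U)
    (hc : ∀ u ∈ U, u ≠ 1 → Cfsg.IsTwoCentralInvolution u) : False := by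
  obtain ⟨r, s, hrs, hr, hs⟩ := exists_ab hF (two_ne (odd_card_of hF hq))
  exact (datU hF hq hrs hr hs).four S U hU4 hUS hn hc

end U

end Cfsg.Agent.H991.FG
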