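import Cfsg.Agent.H991.FourFive

/-!
# No 2-central four-group in `PSL_5(q)` and `PSU_5(q)`, `q` odd (helper991)

Task 283 (for S3102).
-/

set_option autoImplicit false

namespace Cfsg.Agent.H991.FG

open Cfsg Matrix Subgroup Cfsg.Agent.HoltZ Cfsg.Agent.HoltZ.Psl Cfsg.Agent.LieClassical.HermBasic

/-- the data for `PSL_5(q)` -/
def datL5 {F : Type} [Field F] (h2 : (2 : F) ≠ 0) {r s : F} (hrs : r ^ 2 + s ^ 2 = -1) :
    Dat5 (SpecialLinearGroup (Fin 5) F) (Matrix.ProjectiveSpecialLinearGroup (Fin 5) F) hrs where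
  ρ := MonoidHom.id _
  inj := fun _ _ h => h
  π := QuotientGroup.mk' (center (SpecialLinearGroup (Fin 5) F))
  surj := QuotientGroup.mk'_surjective _
  ker := by
    intro g
    rw [QuotientGroup.mk'_apply, QuotientGroup.eq_one_iff, Matrix.SpecialLinearGroup.mem_center_iff]
    constructor
    · rintro ⟨c, hc, hg⟩
      rw [Fintype.card_fin] at hc
      refine ⟨c, hc, ?_⟩
      change g.1 = _
      rw [← hg, scalar_apply, ← smul_one_eq_diagonal]
    · rintro ⟨c, hc, hg⟩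
      refine ⟨c, by rw [Fintype.card_fin]; exact hc, ?_⟩
      change g.1 = _ at hg
      rw [hg, scalar_apply, ← smul_one_eq_diagonal]
  h2 := h2
  hD := fun A _ => ⟨emb A, rfl⟩

theorem four_L5 {F : Type} [Field F] [Fintype F] (hF : Fintype.card F % 4 = 3)
    (U : Subgroup (Matrix.ProjectiveSpecialLinearGroup (Fin 5) F)) (hU4 : Nat.card U = 4)
    (hU2 : ∀ u ∈ U, u * u = 1) (hc : ∀ u ∈ U, u ≠ 1 → Cfsg.IsTwoCentralInvolution u) : False := by
  obtain ⟨r, s, hrs⟩ := Cfsg.Agent.HoltZ.exists_sq_add_sq (two_ne (F := F) (Nat.odd_iff.2 (by omega))) (-1)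
  exact (datL5 (two_ne (Nat.odd_iff.2 (by omega))) hrs).four U hU4 hc

section U

variable {F : Type} [Field F] [Fintype F] {q : ℕ}

omit [Fintype F] in
theorem emb_mem {A : SpecialLinearGroup (Fin 4) F} (hA : A ∈ SU 4 F q) : emb A ∈ SU 5 F q := by
  rw [mem_SU_iff] at hA ⊢
  have key : ∀ u v : Fin 5 → F, hermForm 5 F q u v =
      hermForm 4 F q (fun i => u (Fin.castSucc i)) (fun i => v (Fin.castSucc i)) + u 4 * v 4 ^ q := by
    intro u v
    rw [herm_def, herm_def, Fin.sum_univ_castSucc]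
    rfl
  have e1 : ∀ (u : Fin 5 → F) (i : Fin 4), ((emb A).1 *ᵥ u) (Fin.castSucc i) =
      (A.1 *ᵥ fun i => u (Fin.castSucc i)) i := by
    intro u i
    rw [Matrix.mulVec, Matrix.mulVec, dotProduct, dotProduct, Fin.sum_univ_castSucc]
    have h1 : (emb A).1 (Fin.castSucc i) (Fin.last 4) = 0 := emb_cl A i
    rw [h1, zero_mul, add_zero]
    exact Finset.sum_congr rfl fun k _ => by rw [emb_cc]
  have e2 : ∀ (u : Fin 5 → F), ((emb A).1 *ᵥ u) 4 = u 4 := by
    intro u
    rw [Matrix.mulVec, dotProduct, Fin.sum_univ_castSucc]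
    have h1 : (emb A).1 4 (Fin.last 4) = 1 := by rw [coe_emb']; rfl
    have h2 : ∀ i : Fin 4, (emb A).1 4 (Fin.castSucc i) = 0 := emb_lc A
    rw [h1, one_mul, Finset.sum_eq_zero fun k _ => by rw [h2, zero_mul], zero_add]
    rfl
  intro u v
  rw [key, key u v, e2, e2]
  congr 1
  have h3 : ∀ u : Fin 5 → F, (fun i => ((emb A).1 *ᵥ u) (Fin.castSucc i)) = A.1 *ᵥ fun i => u (Fin.castSucc i) :=
    fun u => funext (e1 u)
  rw [h3, h3]
  exact hA _ _

theorem D4_le (hF : Fintype.card F = q ^ 2) {r s : F} (hrs : r ^ 2 + s ^ 2 = -1) (hr : r ^ q = -r)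
    (hs : s ^ q = -s) : D4 hrs ≤ SU 4 F q := by
  unfold D4 D0
  rw [sup_le_iff, sup_le_iff, closure_le, closure_le, zpowers_le]
  refine ⟨⟨?_, ?_⟩, ?_⟩
  · rintro A (rfl | rfl)
    · exact up_mem hF _ (by simp [zero_pow_q hF, neg_pow_q hF]) (by simp [zero_pow_q hF]) (by simp [zero_pow_q hF])
        (by simp [zero_pow_q hF])
    · exact up_mem hF _ (by rw [hr, hs]; linear_combination -hrs)
        (by rw [neg_pow_q hF, hr, hs]; linear_combination -hrs) (by rw [neg_pow_q hF, hr, hs]; ring)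
        (by rw [hr, hs]; ring)
  · rintro A (rfl | rfl)
    · exact lo_mem hF _ (by simp [zero_pow_q hF, neg_pow_q hF]) (by simp [zero_pow_q hF]) (by simp [zero_pow_q hF])
        (by simp [zero_pow_q hF])
    · exact lo_mem hF _ (by rw [hr, hs]; linear_combination -hrs)
        (by rw [neg_pow_q hF, hr, hs]; linear_combination -hrs) (by rw [neg_pow_q hF, hr, hs]; ring)
        (by rw [hr, hs]; ring)
  · rw [mem_SU_iff]
    intro u v
    have e : ∀ u : Fin 4 → F, (sw4 : SpecialLinearGroup (Fin 4) F).1 *ᵥ u = ![u 2, u 3, u 0, u 1] := by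
      intro u
      ext i
      fin_cases i <;> simp [sw4, Matrix.mulVec, dotProduct, Fin.sum_univ_four]
    rw [e, e, herm4, herm4]
    simp
    ring

/-- the data for `PSU_5(q)` -/
def datU5 (hF : Fintype.card F = q ^ 2) (h2 : (2 : F) ≠ 0) {r s : F} (hrs : r ^ 2 + s ^ 2 = -1) (hr : r ^ q = -r)
    (hs : s ^ q = -s) :
    Dat5 (SU 5 F q) (Cfsg.PSU 5 F q) hrs where
  ρ := (SU 5 F q).subtype
  inj := (SU 5 F q).subtype_injective
  π := QuotientGroup.mk' (center (SU 5 F q))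
  surj := QuotientGroup.mk'_surjective _
  ker := by
    intro g
    rw [QuotientGroup.mk'_apply, QuotientGroup.eq_one_iff]
    constructor
    · intro h
      obtain ⟨c, hcn, hcq, rfl⟩ := (Cfsg.Agent.LieClassical.SUBasic.mem_center_SU_iff hF (by norm_num) _).1 h
      refine ⟨c, hcn, ?_⟩
      change diagonal (fun _ => c) = _
      rw [← smul_one_eq_diagonal]
    · rintro ⟨c, hc, hg⟩
      change g.1.1 = c • 1 at hg
      rw [Subgroup.mem_center_iff]
      intro h
      apply Subtype.ext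
      apply Subtype.ext
      change h.1.1 * g.1.1 = g.1.1 * h.1.1
      rw [hg, mul_smul_comm, smul_mul_assoc, one_mul, mul_one]
  h2 := h2
  hD := fun A hA => ⟨⟨emb A, emb_mem (D4_le hF hrs hr hs hA)⟩, rfl⟩

theorem four_U5 {F : Type} [Field F] [Fintype F] {q : ℕ} (hF : Fintype.card F = q ^ 2) (hq : q % 4 = 1)
    (U : Subgroup (Cfsg.PSU 5 F q)) (hU4 : Nat.card U = 4) (hU2 : ∀ u ∈ U, u * u = 1)
    (hc : ∀ u ∈ U, u ≠ 1 → Cfsg.IsTwoCentralInvolution u) : False := by
  obtain ⟨r, s, hrs, hr, hs⟩ := exists_ab hF (two_ne (odd_card_of hF hq))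
  exact (datU5 hF (two_ne (odd_card_of hF hq)) hrs hr hs).four U hU4 hc

end U

end Cfsg.Agent.H991.FG
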