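import Cfsg.Agent.H991.FourBase
import Cfsg.Agent.HoltZ.Psl4
import Cfsg.Agent.Characters.CNBasic

/-!
# No 2-central normal four-group: two blocks of size two (helper991)

Tasks 280, 281 (for S3102).
-/

set_option autoImplicit false

namespace Cfsg.Agent.H991.FG

open Cfsg Matrix Subgroup Cfsg.Agent.HoltZ Cfsg.Agent.HoltZ.Psl

/-- the 4 by 4 matrices -/
abbrev M4 (F : Type*) := Matrix (Fin 4) (Fin 4) F

section mats

variable {F : Type*} [Field F]

/-- the matrix `diag([x y; z w], 1)` -/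
def uM (x y z w : F) : M4 F := !![x, y, 0, 0; z, w, 0, 0; 0, 0, 1, 0; 0, 0, 0, 1]

/-- the matrix `diag(1, [x y; z w])` -/
def lM (x y z w : F) : M4 F := !![1, 0, 0, 0; 0, 1, 0, 0; 0, 0, x, y; 0, 0, z, w]

theorem uM_mul (x y z w x' y' z' w' : F) : uM x y z w * uM x' y' z' w' =
    uM (x * x' + y * z') (x * y' + y * w') (z * x' + w * z') (z * y' + w * w') := by
  ext i j
  fin_cases i <;> fin_cases j <;> simp [uM, Matrix.mul_apply, Fin.sum_univ_four]

/-- what commutes with both quaternion groups is `diag(p, p, s, s)` -/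
theorem diag_of_comm {x y : F} (h2 : (2 : F) ≠ 0) (hxy : x ^ 2 + y ^ 2 = -1) {z : M4 F} (hdet : z.det = 1)
    {r1 r2 r3 r4 : F}
    (h1 : z * uM 0 1 (-1) 0 = r1 • (uM 0 1 (-1) 0 * z))
    (h1' : z * uM x y y (-x) = r2 • (uM x y y (-x) * z))
    (h3 : z * lM 0 1 (-1) 0 = r3 • (lM 0 1 (-1) 0 * z))
    (h3' : z * lM x y y (-x) = r4 • (lM x y y (-x) * z)) :
    ∃ p s : F, z = diagonal ![p, p, s, s] := by
  obtain ⟨c, hc, h01⟩ := diag_of_comm_four h2 hxy hdet h1 h1' h3 h3'
  have h23 : c 2 = c 3 := by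
    have e3 := congrFun (congrFun h3 2) 3
    have e30 := congrFun (congrFun h3 0) 0
    rw [hc, diagonal_mul, Matrix.smul_apply, mul_diagonal, smul_eq_mul] at e3 e30
    have hc0 : c 0 ≠ 0 := by
      intro h0
      rw [hc, det_diagonal, Fin.prod_univ_four, h0] at hdet
      simp at hdet
    change c 0 * 1 = r3 * (1 * c 0) at e30
    change c 2 * 1 = r3 * (1 * c 3) at e3
    have hr : r3 = 1 := by
      have : (r3 - 1) * c 0 = 0 := by linear_combination -e30
      exact sub_eq_zero.1 ((mul_eq_zero.1 this).resolve_right hc0)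
    rw [hr] at e3
    linear_combination e3
  refine ⟨c 0, c 2, ?_⟩
  rw [hc]
  congr 1
  funext i
  fin_cases i
  · rfl
  · exact h01.symm
  · rfl
  · exact h23.symm

end mats

/-- The data: a group of 4 by 4 matrices of determinant one containing two quaternion groups, and a quotient by
`±1`. -/
structure Dat {F : Type*} [Field F] (X P : Type*) [Group X] [Group P] (r s : F) where
  /-- the matrices -/
  ρ : X →* SpecialLinearGroup (Fin 4) F
  inj : Function.Injective ρ
  /-- the quotient -/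
  π : X →* P
  surj : Function.Surjective π
  ker : ∀ g, π g = 1 ↔ (ρ g : M4 F) = 1 ∨ (ρ g : M4 F) = -1
  h2 : (2 : F) ≠ 0
  hrs : r ^ 2 + s ^ 2 = -1
  /-- the generators -/
  a1 : X
  /-- the generators -/
  b1 : X
  /-- the generators -/
  a2 : X
  /-- the generators -/
  b2 : X
  ha1 : (ρ a1 : M4 F) = uM 0 1 (-1) 0
  hb1 : (ρ b1 : M4 F) = uM r s s (-r)
  ha2 : (ρ a2 : M4 F) = lM 0 1 (-1) 0
  hb2 : (ρ b2 : M4 F) = lM r s s (-r)
  K : ∀ (g h : X) (c : F), (∀ i, (ρ g : M4 F) i 0 = c * (ρ h : M4 F) i 0) → c ^ 2 ≠ -1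

namespace Dat

variable {F : Type*} [Field F] {X P : Type*} [Group X] [Group P] {r s : F} (d : Dat X P r s)

/-- the matrix of an element -/
def M (g : X) : M4 F := (d.ρ g : M4 F)

theorem M_mul (g h : X) : d.M (g * h) = d.M g * d.M h := by
  unfold M; rw [map_mul]; rfl

theorem M_one : d.M 1 = 1 := by
  unfold M; rw [map_one]; rfl

theorem M_inj {g h : X} (e : d.M g = d.M h) : g = h := d.inj (Subtype.ext e)

theorem π_eq_one {g : X} : d.π g = 1 ↔ d.M g = 1 ∨ d.M g = -1 := d.ker g

theorem π_eq {g h : X} (e : d.π g = d.π h) : d.M g = d.M h ∨ d.M g = - d.M h := by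
  have h1 : d.π (g * h⁻¹) = 1 := by rw [map_mul, e, map_inv, mul_inv_cancel]
  have h3 : d.M g = d.M (g * h⁻¹) * d.M h := by rw [← M_mul, inv_mul_cancel_right]
  rcases d.π_eq_one.1 h1 with h2 | h2
  · left; rw [h3, h2, one_mul]
  · right; rw [h3, h2, neg_one_mul]

theorem π_eq_of {g h : X} (e : d.M g = d.M h ∨ d.M g = - d.M h) : d.π g = d.π h := by
  rcases e with e | e
  · rw [d.M_inj e]
  · have h1 : d.M (g * h⁻¹) = -1 := by
      rw [M_mul, e, neg_mul, ← M_mul, mul_inv_cancel, M_one]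
    have h2 := d.π_eq_one.2 (Or.inr h1)
    rwa [map_mul, map_inv, mul_inv_eq_one] at h2

/-- the involution `diag(-1, -1, 1, 1)` -/
def t : X := d.a1 * d.a1

theorem M_t : d.M d.t = diagonal ![-1, -1, 1, 1] := by
  unfold t
  rw [M_mul]
  unfold M
  rw [d.ha1]
  ext i j
  fin_cases i <;> fin_cases j <;> simp [uM, Matrix.mul_apply, Fin.sum_univ_four]

/-- the 2-group -/
def D : Subgroup X := closure ({d.a1, d.b1} : Set X) ⊔ closure ({d.a2, d.b2} : Set X)

theorem a1_mem : d.a1 ∈ d.D := mem_sup_left (subset_closure (by simp))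
theorem b1_mem : d.b1 ∈ d.D := mem_sup_left (subset_closure (by simp))
theorem a2_mem : d.a2 ∈ d.D := mem_sup_right (subset_closure (by simp))
theorem b2_mem : d.b2 ∈ d.D := mem_sup_right (subset_closure (by simp))

theorem isPGroup_D : IsPGroup 2 d.D := by
  have h1 : (d.D.map d.ρ) = closure ({d.ρ d.a1, d.ρ d.b1} : Set _) ⊔ closure ({d.ρ d.a2, d.ρ d.b2} : Set _) := by
    unfold D
    rw [Subgroup.map_sup, MonoidHom.map_closure, MonoidHom.map_closure, Set.image_pair, Set.image_pair]
  have ha1 : d.ρ d.a1 = up 0 1 (-1) 0 (by ring) := Subtype.ext d.ha1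
  have hb1 : d.ρ d.b1 = up r s s (-r) (by linear_combination -d.hrs) := Subtype.ext d.hb1
  have ha2 : d.ρ d.a2 = lo 0 1 (-1) 0 (by ring) := Subtype.ext d.ha2
  have hb2 : d.ρ d.b2 = lo r s s (-r) (by linear_combination -d.hrs) := Subtype.ext d.hb2
  have h2 : IsPGroup 2 ↥(d.D.map d.ρ) := by
    rw [h1, ha1, hb1, ha2, hb2]
    refine isPGroup_sup (isPGroup_up d.hrs) (isPGroup_lo d.hrs) (commute_closure ?_)
    rintro a (rfl | rfl) b (rfl | rfl) <;> exact up_mul_lo _ _ _ _ _ _ _ _ _ _
  intro x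
  obtain ⟨k, hk⟩ := h2 ⟨d.ρ x, mem_map_of_mem _ x.2⟩
  refine ⟨k, Subtype.ext (d.inj ?_)⟩
  have := congrArg Subtype.val hk
  simpa using this

/-- **Step 1.** -/
theorem step1 {u : P} (hu : orderOf u = 2) (hc : ∀ x ∈ d.D, d.π x * u = u * d.π x) : u = d.π d.t := by
  obtain ⟨g, rfl⟩ := d.surj u
  have hex : ∀ a ∈ d.D, ∃ k : F, d.M g * d.M a = k • (d.M a * d.M g) := by
    intro a ha
    have h1 := hc a ha
    rw [← map_mul, ← map_mul] at h1
    rcases d.π_eq h1.symm with h | h
    · exact ⟨1, by rw [one_smul, ← M_mul, h, M_mul]⟩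
    · exact ⟨-1, by rw [neg_one_smul, ← M_mul, h, M_mul]⟩
  obtain ⟨k1, e1⟩ := hex _ d.a1_mem
  obtain ⟨k2, e2⟩ := hex _ d.b1_mem
  obtain ⟨k3, e3⟩ := hex _ d.a2_mem
  obtain ⟨k4, e4⟩ := hex _ d.b2_mem
  unfold M at e1 e2 e3 e4
  rw [d.ha1] at e1
  rw [d.hb1] at e2
  rw [d.ha2] at e3
  rw [d.hb2] at e4
  obtain ⟨p, q, hpq⟩ := diag_of_comm d.h2 d.hrs (d.ρ g).2 e1 e2 e3 e4
  change d.M g = _ at hpq
  have hu2 : d.π (g * g) = 1 := by
    rw [map_mul, ← pow_two, ← hu, pow_orderOf_eq_one]
  have hK := d.K g 1 p (by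
    intro i
    change d.M g i 0 = p * d.M 1 i 0
    rw [hpq, M_one, diagonal_apply, Matrix.one_apply]
    fin_cases i <;> simp)
  have hsq : p * p = 1 ∧ q * q = 1 := by
    rcases d.π_eq_one.1 hu2 with h | h
    · rw [M_mul, hpq, diagonal_mul_diagonal] at h
      have h0 := congrFun (congrFun h 0) 0
      have h3 := congrFun (congrFun h 2) 2
      simp at h0 h3
      exact ⟨h0, h3⟩
    · rw [M_mul, hpq, diagonal_mul_diagonal] at h
      have h0 := congrFun (congrFun h 0) 0
      simp at h0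
      exact absurd (by rw [pow_two, h0]) hK
  have hne : d.M g ≠ 1 ∧ d.M g ≠ -1 := by
    constructor <;> intro h
    · rw [d.π_eq_one.2 (Or.inl h), orderOf_one] at hu
      exact absurd hu (by norm_num)
    · rw [d.π_eq_one.2 (Or.inr h), orderOf_one] at hu
      exact absurd hu (by norm_num)
  apply d.π_eq_of
  rw [M_t, hpq]
  rw [hpq] at hne
  have e1 : diagonal ![(1 : F), 1, 1, 1] = 1 := by
    rw [← diagonal_one]; congr 1; funext i; fin_cases i <;> rfl
  have e2 : diagonal ![(-1 : F), -1, -1, -1] = -1 := by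
    rw [← diagonal_one, diagonal_neg]; congr 1; funext i; fin_cases i <;> rfl
  rcases mul_self_eq_one_iff.1 hsq.1 with hp | hp <;> rcases mul_self_eq_one_iff.1 hsq.2 with hq | hq
  · rw [hp, hq] at hne; exact absurd e1 hne.1
  · right
    rw [hp, hq, diagonal_neg]; congr 1; funext i; fin_cases i <;> simp
  · left
    rw [hp, hq]
  · rw [hp, hq] at hne; exact absurd e2 hne.2

/-- the lifts of 2-central involutions -/
theorem lift_two_central [Finite X] {g : X} (hg : IsTwoCentralInvolution (d.π g)) : g * g = 1 ∧ (d.M g).trace = 0 := by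
  have : Finite P := Finite.of_surjective d.π d.surj
  obtain ⟨k, hk⟩ := exists_commute hg (d.D.map d.π) (d.isPGroup_D.map _)
  obtain ⟨y, rfl⟩ := d.surj k
  have h1 : d.π (y * g * y⁻¹) = d.π d.t := by
    rw [map_mul, map_mul, map_inv]
    refine d.step1 ?_ (fun x hx => hk _ (mem_map_of_mem _ hx))
    rw [← hg.1]
    exact (MulAut.conj (d.π y)).orderOf_eq (d.π g)
  have h3 : d.M (y * g * y⁻¹) * d.M (y * g * y⁻¹) = 1 ∧ (d.M (y * g * y⁻¹)).trace = 0 := by
    rcases d.π_eq h1 with h | h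
    · rw [h, M_t, diagonal_mul_diagonal, trace_diagonal]
      constructor
      · rw [← diagonal_one]; congr 1; funext i; fin_cases i <;> simp
      · simp [Fin.sum_univ_four]
    · rw [h, M_t, neg_mul_neg, diagonal_mul_diagonal, trace_neg, trace_diagonal]
      constructor
      · rw [← diagonal_one]; congr 1; funext i; fin_cases i <;> simp
      · simp [Fin.sum_univ_four]
  constructor
  · have h4 : (y * g * y⁻¹) * (y * g * y⁻¹) = 1 := d.M_inj (by rw [M_mul, h3.1, M_one])
    calc g * g = y⁻¹ * ((y * g * y⁻¹) * (y * g * y⁻¹)) * y := by group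
      _ = 1 := by rw [h4]; group
  · have h5 : g = y⁻¹ * (y * g * y⁻¹) * y := by group
    rw [h5, M_mul, M_mul, trace_mul_comm, ← mul_assoc, ← M_mul, mul_inv_cancel, M_one, one_mul]
    exact h3.2

/-- **The core.** -/
theorem core [Finite X] {U : Subgroup P} (hU4 : Nat.card U = 4) (hc : ∀ u ∈ U, u ≠ 1 → IsTwoCentralInvolution u)
    (hn : ∀ x ∈ d.D, ∀ u ∈ U, d.π x * u * (d.π x)⁻¹ ∈ U) {u1 : P} (hu1 : u1 ∈ U) (hu1' : u1 ≠ 1)
    (hu1c : ∀ x ∈ d.D, d.π x * u1 = u1 * d.π x) : False := by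
  classical
  have : Finite P := Finite.of_surjective d.π d.surj
  have e1 : u1 = d.π d.t := d.step1 (hc u1 hu1 hu1').1 hu1c
  obtain ⟨u2, hu2, h21, h2u⟩ : ∃ u2 ∈ U, u2 ≠ 1 ∧ u2 ≠ u1 := by
    by_contra hcon
    push Not at hcon
    have h1 : (U : Set P) ⊆ {1, u1} := by
      intro u hu
      by_cases h : u = 1
      · simp [h]
      · simp [hcon u hu h]
    have h3 := Set.ncard_le_ncard h1 (Set.toFinite _)
    rw [show (U : Set P).ncard = 4 from hU4] at h3
    have h4 := Set.ncard_insert_le 1 ({u1} : Set P)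
    rw [Set.ncard_singleton] at h4
    omega
  obtain ⟨b, rfl⟩ := d.surj u2
  have hb := d.lift_two_central (hc _ hu2 h21)
  have htbU : d.π (d.t * b) ∈ U := by
    rw [map_mul, ← e1]; exact mul_mem hu1 hu2
  have htb1 : d.π (d.t * b) ≠ 1 := by
    intro h
    apply h2u
    rw [map_mul, ← e1] at h
    have h3 : u1 * u1 = 1 := by rw [← pow_two, ← (hc u1 hu1 hu1').1, pow_orderOf_eq_one]
    calc d.π b = u1 * u1 * d.π b := by rw [h3, one_mul]
      _ = u1 * (u1 * d.π b) := mul_assoc _ _ _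
      _ = u1 := by rw [h, mul_one]
  have htb := d.lift_two_central (hc _ htbU htb1)
  -- the elements of `U`
  have hall : ∀ u ∈ U, u = 1 ∨ u = u1 ∨ u = d.π b ∨ u = d.π (d.t * b) := by
    have h1 : ({1, u1, d.π b, d.π (d.t * b)} : Set P) ⊆ U := by
      rintro x (rfl | rfl | rfl | rfl)
      exacts [U.one_mem, hu1, hu2, htbU]
    have h3 : ({1, u1, d.π b, d.π (d.t * b)} : Set P).ncard = 4 := by
      have a1 : u1 ≠ d.π (d.t * b) := by
        rw [map_mul, ← e1]
        intro h
        exact h21 (left_eq_mul.1 h)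
      have a2 : d.π b ≠ d.π (d.t * b) := by
        rw [map_mul, ← e1]
        intro h
        exact hu1' (right_eq_mul.1 h)
      rw [Set.ncard_insert_of_notMem, Set.ncard_insert_of_notMem, Set.ncard_pair a2]
      · rintro (h | h)
        · exact h2u h.symm
        · exact a1 h
      · rintro (h | h | h)
        · exact hu1' h.symm
        · exact h21 h.symm
        · exact htb1 h.symm
    have h4 : (U : Set P).ncard = 4 := hU4
    have h5 := Set.eq_of_subset_of_ncard_le h1 (by rw [h3, h4]) (Set.toFinite _)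
    intro u hu
    have : u ∈ ({1, u1, d.π b, d.π (d.t * b)} : Set P) := by rw [h5]; exact hu
    simpa using this
  have hconj : ∀ x ∈ d.D, ∃ e : F, (e = 1 ∨ e = -1) ∧ ∀ i j : Fin 4, i ∈ ({0, 1} : Finset (Fin 4)) →
      (d.M x * d.M b) i j = e * (d.M b * d.M x) i j := by
    intro x hx
    have h1 := hn x hx _ hu2
    have hne1 : d.π x * d.π b * (d.π x)⁻¹ ≠ 1 := by
      intro h
      rw [mul_inv_eq_one, mul_eq_left] at h
      exact h21 h
    have hne2 : d.π x * d.π b * (d.π x)⁻¹ ≠ u1 := by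
      intro h
      rw [mul_inv_eq_iff_eq_mul, ← hu1c x hx, mul_right_inj] at h
      exact h2u h
    have h3 : d.π (x * b) = d.π (b * x) ∨ d.π (x * b) = d.π (d.t * b * x) := by
      rcases hall _ h1 with h | h | h | h
      · exact absurd h hne1
      · exact absurd h hne2
      · left; rw [map_mul, map_mul]; exact mul_inv_eq_iff_eq_mul.1 h
      · right; rw [map_mul, map_mul _ _ x]; exact mul_inv_eq_iff_eq_mul.1 h
    have hT : ∀ (N : M4 F) (i j : Fin 4), i ∈ ({0, 1} : Finset (Fin 4)) → (d.M d.t * N) i j = - N i j := by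
      intro N i j hi
      rw [M_t, diagonal_mul]
      simp only [Finset.mem_insert, Finset.mem_singleton] at hi
      rcases hi with rfl | rfl <;> simp
    rcases h3 with h | h <;> rcases d.π_eq h with h4 | h4
    · exact ⟨1, Or.inl rfl, fun i j _ => by rw [← M_mul, ← M_mul, h4, one_mul]⟩
    · exact ⟨-1, Or.inr rfl, fun i j _ => by rw [← M_mul, ← M_mul, h4, Matrix.neg_apply, neg_one_mul]⟩
    · refine ⟨-1, Or.inr rfl, fun i j hi => ?_⟩
      rw [← M_mul, h4, mul_assoc, M_mul, hT _ _ _ hi, M_mul, neg_one_mul]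
    · refine ⟨1, Or.inl rfl, fun i j hi => ?_⟩
      rw [← M_mul, h4, mul_assoc, M_mul, Matrix.neg_apply, hT _ _ _ hi, M_mul, neg_neg, one_mul]
  -- the matrix of `b`
  have hbb : d.M b * d.M b = 1 := by rw [← M_mul, hb.1, M_one]
  have htb2 : d.t * b = b * d.t := by
    have h1 : b⁻¹ = b := inv_eq_of_mul_eq_one_left hb.1
    have h3 : (d.t * b)⁻¹ = d.t * b := inv_eq_of_mul_eq_one_left htb.1
    have h4 : d.t⁻¹ = d.t := by
      apply inv_eq_of_mul_eq_one_left
      apply d.M_inj
      rw [M_mul, M_t, M_one, diagonal_mul_diagonal, ← diagonal_one]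
      congr 1; funext i; fin_cases i <;> simp
    rw [← h3, _root_.mul_inv_rev, h1, h4]
  have hTM : d.M d.t * d.M b = d.M b * d.M d.t := by rw [← M_mul, ← M_mul, htb2]
  have htr := hb.2
  have htr' := htb.2
  rw [M_mul, M_t] at htr'
  rw [M_t] at hTM
  obtain ⟨N, hN⟩ : ∃ N, N = d.M b := ⟨_, rfl⟩
  rw [← hN] at hbb hTM htr htr'
  have two := d.h2
  have half : ∀ {x : F}, -x = x → x = 0 := by
    intro x hx
    have : 2 * x = 0 := by linear_combination -hx
    exact (mul_eq_zero.1 this).resolve_left two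
  have n02 : N 0 2 = 0 := by
    have := congrFun (congrFun hTM 0) 2
    rw [diagonal_mul, mul_diagonal] at this
    simp at this
    exact half this
  have n12 : N 1 2 = 0 := by
    have := congrFun (congrFun hTM 1) 2
    rw [diagonal_mul, mul_diagonal] at this
    simp at this
    exact half this
  have n03 : N 0 3 = 0 := by
    have := congrFun (congrFun hTM 0) 3
    rw [diagonal_mul, mul_diagonal] at this
    simp at this
    exact half this
  have n13 : N 1 3 = 0 := by
    have := congrFun (congrFun hTM 1) 3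
    rw [diagonal_mul, mul_diagonal] at this
    simp at this
    exact half this
  have n20 : N 2 0 = 0 := by
    have := congrFun (congrFun hTM 2) 0
    rw [diagonal_mul, mul_diagonal] at this
    simp at this
    exact half this.symm
  have n30 : N 3 0 = 0 := by
    have := congrFun (congrFun hTM 3) 0
    rw [diagonal_mul, mul_diagonal] at this
    simp at this
    exact half this.symm
  have n11 : N 1 1 = - N 0 0 := by
    rw [Matrix.trace, Fin.sum_univ_four] at htr htr'
    simp only [diag_apply, diagonal_mul] at htr htr'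
    simp at htr'
    have : 2 * (N 0 0 + N 1 1) = 0 := by linear_combination htr - htr'
    rcases mul_eq_zero.1 this with h | h
    · exact absurd h two
    · linear_combination h
  have nsq : N 0 0 * N 0 0 + N 0 1 * N 1 0 = 1 := by
    have := congrFun (congrFun hbb 0) 0
    rw [Matrix.mul_apply, Fin.sum_univ_four, n02, n03] at this
    simpa using this
  obtain ⟨ea, hea, ha⟩ := hconj _ d.a1_mem
  obtain ⟨eb, heb, hb'⟩ := hconj _ d.b1_mem
  rw [← hN] at ha hb'
  have hA : d.M d.a1 = uM 0 1 (-1) 0 := d.ha1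
  have hB : d.M d.b1 = uM r s s (-r) := d.hb1
  rw [hA] at ha
  rw [hB] at hb'
  have ha00 := ha 0 0 (by simp)
  have ha01 := ha 0 1 (by simp)
  have hb00 := hb' 0 0 (by simp)
  have hb01 := hb' 0 1 (by simp)
  have hb10 := hb' 1 0 (by simp)
  simp only [Matrix.mul_apply, Fin.sum_univ_four, uM, n02, n03, n12, n13, n20, n30] at ha00 ha01 hb00 hb01 hb10
  simp [n11] at ha00 ha01 hb00 hb01 hb10
  have hrs := d.hrs
  have cancel : ∀ {x : F}, 2 * x = 0 → x = 0 := fun h => (mul_eq_zero.1 h).resolve_left two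
  rcases hea with rfl | rfl
  · have hx : N 0 0 = 0 := cancel (by linear_combination -ha01)
    refine d.K b d.a1 (N 0 1) ?_ ?_
    · intro i
      change d.M b i 0 = N 0 1 * d.M d.a1 i 0
      rw [← hN, hA]
      fin_cases i
      · change N 0 0 = N 0 1 * 0
        rw [hx, mul_zero]
      · change N 1 0 = N 0 1 * (-1)
        linear_combination ha00
      · change N 2 0 = N 0 1 * 0
        rw [n20, mul_zero]
      · change N 3 0 = N 0 1 * 0
        rw [n30, mul_zero]
    · rw [hx] at nsq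
      linear_combination -nsq + N 0 1 * ha00
  · have hyz : N 1 0 = N 0 1 := by linear_combination ha00
    rcases heb with rfl | rfl
    · have hxy : r * N 0 1 = s * N 0 0 := by
        have := cancel (x := r * N 0 1 - s * N 0 0) (by linear_combination hb01)
        linear_combination this
      refine d.K b d.b1 (-(r * N 0 0 + s * N 1 0)) ?_ ?_
      · intro i
        change d.M b i 0 = -(r * N 0 0 + s * N 1 0) * d.M d.b1 i 0
        rw [← hN, hB]
        fin_cases i
        · change N 0 0 = -(r * N 0 0 + s * N 1 0) * r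
          linear_combination N 0 0 * hrs + s * hxy + s * r * hyz
        · change N 1 0 = -(r * N 0 0 + s * N 1 0) * s
          linear_combination N 1 0 * hrs - r * hxy - r * r * hyz
        · change N 2 0 = -(r * N 0 0 + s * N 1 0) * 0
          rw [n20, mul_zero]
        · change N 3 0 = -(r * N 0 0 + s * N 1 0) * 0
          rw [n30, mul_zero]
      · linear_combination (N 0 0 ^ 2 + N 1 0 ^ 2) * hrs - nsq - N 1 0 * hyz -
          (r * N 1 0 - s * N 0 0) * (hxy + r * hyz)
    · have hxy : r * N 0 0 + s * N 1 0 = 0 := by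
        apply cancel
        linear_combination hb00 + s * hyz
      refine d.K b (d.a1 * d.b1) (-(s * N 0 0 - r * N 1 0)) ?_ ?_
      · intro i
        change d.M b i 0 = -(s * N 0 0 - r * N 1 0) * d.M (d.a1 * d.b1) i 0
        rw [← hN, M_mul, hA, hB, uM_mul]
        fin_cases i
        · change N 0 0 = -(s * N 0 0 - r * N 1 0) * (0 * r + 1 * s)
          linear_combination N 0 0 * hrs - r * hxy
        · change N 1 0 = -(s * N 0 0 - r * N 1 0) * (-1 * r + 0 * s)
          linear_combination N 1 0 * hrs - s * hxy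
        · change N 2 0 = -(s * N 0 0 - r * N 1 0) * 0
          rw [n20, mul_zero]
        · change N 3 0 = -(s * N 0 0 - r * N 1 0) * 0
          rw [n30, mul_zero]
      · linear_combination (N 0 0 ^ 2 + N 1 0 ^ 2) * hrs - nsq - N 1 0 * hyz -
          (r * N 0 0 + s * N 1 0) * hxy

include d in
/-- **No normal 2-central four-group.** -/
theorem four [Finite X] (S : Sylow 2 P) (U : Subgroup P) (hU4 : Nat.card U = 4) (hUS : U ≤ S)
    (hn : ∀ s ∈ S, ∀ u ∈ U, s * u * s⁻¹ ∈ U) (hc : ∀ u ∈ U, u ≠ 1 → IsTwoCentralInvolution u) : False := by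
  have : Finite P := Finite.of_surjective d.π d.surj
  obtain ⟨Q, hQ⟩ := (d.isPGroup_D.map d.π).exists_le_sylow
  obtain ⟨g, hg⟩ := MulAction.exists_smul_eq P S Q
  have hU1 : U ≠ ⊥ := by
    intro h
    rw [h, Subgroup.card_bot] at hU4
    omega
  obtain ⟨w, hw, hw1, hwc⟩ := Cfsg.Agent.Characters.CNBasic.exists_mem_center_of_normal (p := 2)
    (S : Subgroup P) S.2 U (S.2.to_le hUS) hU1 hn
  have hcj : ∀ x ∈ d.D, ∃ s ∈ S, d.π x = g * s * g⁻¹ := by
    intro x hx
    have h1 : d.π x ∈ ((g • S : Sylow 2 P) : Subgroup P) := by rw [hg]; exact hQ (mem_map_of_mem _ hx)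
    rw [Sylow.coe_subgroup_smul] at h1
    obtain ⟨y, hy, h2⟩ := Subgroup.mem_map.1 h1
    exact ⟨y, hy, h2.symm⟩
  refine d.core (U := U.map (MulAut.conj g).toMonoidHom) ?_ ?_ ?_ (u1 := g * w * g⁻¹) ?_ ?_ ?_
  · rw [← hU4]
    exact Subgroup.card_map_of_injective (MulAut.conj g).injective
  · rintro _ ⟨u, hu, rfl⟩ h1
    change g * u * g⁻¹ ≠ 1 at h1
    change IsTwoCentralInvolution (g * u * g⁻¹)
    refine isTwoCentral_conj (hc u hu ?_) g
    rintro rfl
    exact h1 (by group)
  · rintro x hx _ ⟨u, hu, rfl⟩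
    obtain ⟨s, hs, hxs⟩ := hcj x hx
    refine ⟨s * u * s⁻¹, hn s hs u hu, ?_⟩
    change g * (s * u * s⁻¹) * g⁻¹ = d.π x * (g * u * g⁻¹) * (d.π x)⁻¹
    rw [hxs]
    group
  · exact ⟨w, hw, rfl⟩
  · intro h
    apply hw1
    calc w = g⁻¹ * (g * w * g⁻¹) * g := by group
      _ = 1 := by rw [h]; group
  · intro x hx
    obtain ⟨s, hs, hxs⟩ := hcj x hx
    rw [hxs]
    have := hwc s hs
    calc g * s * g⁻¹ * (g * w * g⁻¹) = g * (s * w) * g⁻¹ := by group
      _ = g * (w * s) * g⁻¹ := by rw [this]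
      _ = _ := by group

end Dat

end Cfsg.Agent.H991.FG
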