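import Cfsg.Agent.H991.FourBase
import Cfsg.Agent.HoltZ.Psp
import Cfsg.Agent.H100.SpTwo
import Cfsg.Agent.LThreeMB.QuoMap

/-!
# No 2-central four-group in `PSp_4(q)` (helper991)

Task 282 (for S3102).
-/

set_option autoImplicit false

namespace Cfsg.Agent.H991.FG

open Cfsg Matrix Subgroup Cfsg.Agent.HoltZ.Psp Cfsg.Agent.ClassicalGeometry.SympBasic Cfsg.Agent.HoltZ

theorem two_ne_of_odd {F : Type*} [Field F] [Fintype F] (hF : Odd (Fintype.card F)) : (2 : F) ≠ 0 := by
  intro h
  have h1 : ringChar F = 2 := by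
    have h3 : ringChar F ∣ 2 := ringChar.dvd (by exact_mod_cast h)
    rcases (Nat.dvd_prime Nat.prime_two).1 h3 with h4 | h4
    · exact absurd h4 (CharP.ringChar_ne_one)
    · exact h4
  have h2 := FiniteField.even_card_iff_char_two.1 h1
  rw [Nat.odd_iff] at hF
  omega

/-- the lifts of 2-central involutions are involutions -/
theorem sq_one_sp {F : Type*} [Field F] [Fintype F] (hF : Odd (Fintype.card F)) (g : symplecticGroup (Fin 2) F)
    (hg : IsTwoCentralInvolution (QuotientGroup.mk' (center (symplecticGroup (Fin 2) F)) g)) : g * g = 1 := by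
  have h2 := two_ne_of_odd hF
  obtain ⟨x, y, hxy⟩ := exists_sq_add_sq h2 (-1 : F)
  obtain ⟨k, hk⟩ := exists_commute hg
    (((Subgroup.pi Set.univ (fun _ : Fin 2 => Q hxy)).map (blk (m := 2))).map
      (QuotientGroup.mk' (center (symplecticGroup (Fin 2) F)))) ((isPGroup_Q hxy).map _)
  obtain ⟨t, rfl⟩ := QuotientGroup.mk'_surjective (center (symplecticGroup (Fin 2) F)) k
  rw [← map_inv, ← map_mul, ← map_mul] at hk
  obtain ⟨e, he, he1⟩ := exists_dg h2 (le_refl 2) hxy (z := t * g * t⁻¹) (fun i a ha => exists_scalar (by norm_num)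
    (hk _ (mem_map_of_mem _ (mulSingle_mem hxy i ha))))
  have h3 : (t * g * t⁻¹) * (t * g * t⁻¹) = 1 := by
    apply ext_mulVec
    intro v
    rw [coe_mul_mulVec]
    ext (k | k)
    · rw [he.inl, he.inl, ← mul_assoc, he1, one_mul]; simp
    · rw [he.inr, he.inr, ← mul_assoc, he1, one_mul]; simp
  calc g * g = t⁻¹ * ((t * g * t⁻¹) * (t * g * t⁻¹)) * t := by group
    _ = 1 := by rw [h3]; group

theorem four_Sp4 {F : Type} [Field F] [Fintype F] (hF : Odd (Fintype.card F)) (U : Subgroup (Cfsg.PSp 2 F))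
    (hU4 : Nat.card U = 4) (hU2 : ∀ u ∈ U, u * u = 1) (hc : ∀ u ∈ U, u ≠ 1 → Cfsg.IsTwoCentralInvolution u) :
    False := by
  have h2 := two_ne_of_odd hF
  set π := QuotientGroup.mk' (center (symplecticGroup (Fin 2) F)) with hπ
  have hsq : ∀ g ∈ U.comap π, g * g = 1 := by
    intro g hg
    by_cases h1 : π g = 1
    · have h3 : g ∈ center (symplecticGroup (Fin 2) F) := by
        rwa [hπ, QuotientGroup.mk'_apply, QuotientGroup.eq_one_iff] at h1
      obtain ⟨r, hr⟩ := (Cfsg.Agent.LieClassical.SympCenter.mem_center_iff 2 _).1 h3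
      have h4 := Cfsg.Agent.LieClassical.SympCenter.sq_eq_one_of_smul_mem (by norm_num) (hr ▸ g.2)
      apply Subtype.ext
      change g.1 * g.1 = 1
      rw [hr, smul_mul_smul_comm, h4, one_smul, one_mul]
    · exact sq_one_sp hF g (hc _ hg h1)
  have hcomm : ∀ a ∈ U.comap π, ∀ b ∈ U.comap π, a * b = b * a := by
    intro a ha b hb
    have h1 := hsq a ha
    have h3 := hsq b hb
    have h4 := hsq _ (mul_mem ha hb)
    have h5 : (a * b)⁻¹ = a * b := inv_eq_of_mul_eq_one_left h4
    rw [← h5, _root_.mul_inv_rev, inv_eq_of_mul_eq_one_left h1, inv_eq_of_mul_eq_one_left h3]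
  have h5 := Cfsg.Agent.H100.SpTwo.card_elemAb_le h2 (U.comap π) hcomm hsq
  have h6 := Cfsg.Agent.LThreeMB.QuoMap.card_comap π (QuotientGroup.mk'_surjective _) U
  have h7 : Nat.card π.ker = 2 := by
    rw [hπ, QuotientGroup.ker_mk', Cfsg.Agent.LieClassical.SympCenter.card_center (by norm_num)]
    apply Nat.gcd_eq_left
    rw [Nat.odd_iff] at hF
    omega
  rw [h6, hU4] at h5
  omega

end Cfsg.Agent.H991.FG
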